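import Mathlib
import Cfsg.Agent.Lib.Helper83.MinSU.Defs
import Cfsg.Agent.Lib.Helper5.SUParabolic
import Cfsg.Agent.Lib.Helper5.SUOrder

set_option autoImplicit false

namespace Cfsg.Agent.Lib.Helper81.MinSU

open Matrix Cfsg.Agent.Lib.Helper13 Cfsg.Agent.Lib.Helper5 Cfsg.Agent.Lib.Helper57.RootSU
  Cfsg.Agent.Lib.Helper83.MinSU

variable {F : Type*} [Field F] [Fintype F] {q m n : ℕ}

theorem half_succ2 (k : ℕ) : (k + 2) * (k + 2 - 1) / 2 = k * (k - 1) / 2 + (2 * k + 1) := by
  obtain ⟨t, ht⟩ := Nat.even_mul_pred_self k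
  have e : (k + 2) * (k + 2 - 1) = k * (k - 1) + 2 * (2 * k + 1) := by
    cases k with
    | zero => rfl
    | succ s =>
      have a1 : s + 1 + 2 - 1 = s + 2 := by omega
      have a2 : s + 1 - 1 = s := by omega
      rw [a1, a2]
      ring
  rw [e, ht]
  omega

/-- [PEI] -/
theorem index_Pe (hF : Fintype.card F = q ^ 2) (hn : 2 ≤ n) (he : Even n) (e : Fin n → F)
    (he0 : e ≠ 0) (hee : Cfsg.hermForm n F q e e = 0) : (Pe q e).index = NU q n := by
  have hq := two_le_of_card_sq hF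
  obtain ⟨k, rfl⟩ : ∃ k, n = k + 2 := ⟨n - 2, by omega⟩
  have hk : Even k := by
    rcases he with ⟨j, hj⟩
    exact ⟨j - 1, by omega⟩
  have hk1 : ¬ Even (k + 1) := by
    rw [Nat.not_even_iff_odd]
    exact hk.add_one
  have h1 := card_su_parabolic hF 1 (by omega : 1 ≤ k + 2) (by omega) (Submodule.span F {e})
    (finrank_span_singleton he0) (by
      intro u hu v hv
      obtain ⟨a, rfl⟩ := Submodule.mem_span_singleton.mp hu
      obtain ⟨b, rfl⟩ := Submodule.mem_span_singleton.mp hv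
      rw [hermForm_smul_left, hermForm_smul_right, hee]
      ring)
  have h2 := card_SU_mul (n := k + 2) hF (by omega)
  rw [card_GU hF (k + 2)] at h2
  have h3 := (Pe q e).index_mul_card
  have hfin : Finite (Cfsg.GU k F q) := Subtype.finite
  have hpos : 0 < Nat.card (Cfsg.GU k F q) := Nat.card_pos
  rw [card_GU hF k] at hpos
  have e1 : k + 2 - 2 * 1 = k := by omega
  have e2 : 1 * (2 * (k + 2) - 3 * 1) = 2 * k + 1 := by omega
  rw [e1, e2] at h1
  simp only [Finset.univ_unique, Fin.default_eq_zero, Fin.val_zero, pow_zero, Finset.prod_singleton,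
    pow_one] at h1
  rw [half_succ2, Finset.prod_range_succ, Finset.prod_range_succ, if_pos hk, if_neg hk1, pow_add] at h2
  set Pk := ∏ i ∈ Finset.range k, (if Even i then q ^ (i + 1) + 1 else q ^ (i + 1) - 1) with hPk
  set T := q ^ (k * (k - 1) / 2) with hT
  set A := q ^ (2 * k + 1) with hA
  have hApos : 0 < A := pow_pos (by omega) _
  have key : ((Pe q e).index * (q ^ 2 - 1)) * (A * (T * Pk)) =
      ((q ^ (k + 2) - 1) * (q ^ (k + 2 - 1) + 1)) * (A * (T * Pk)) := by
    have e3 : k + 2 - 1 = k + 1 := by omega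
    rw [e3]
    calc ((Pe q e).index * (q ^ 2 - 1)) * (A * (T * Pk))
        = (Pe q e).index * (A * (q ^ 2 - 1) * (T * Pk)) := by ring
      _ = (Pe q e).index * ((q + 1) * Nat.card (Pe q e)) := by rw [← h1]; rfl
      _ = (q + 1) * ((Pe q e).index * Nat.card (Pe q e)) := by ring
      _ = (q + 1) * Nat.card (Cfsg.SU (k + 2) F q) := by rw [h3]
      _ = _ := by rw [h2]; ring
  have h4 := Nat.eq_of_mul_eq_mul_right (Nat.mul_pos hApos hpos) key
  unfold NU
  have hc : 0 < q ^ 2 - 1 := by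
    have : 2 ^ 2 ≤ q ^ 2 := Nat.pow_le_pow_left hq 2
    omega
  exact (Nat.div_eq_of_eq_mul_left hc h4.symm).symm

end Cfsg.Agent.Lib.Helper81.MinSU
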