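import Mathlib
import Cfsg.Agent.Lib.Helper81.MinSU.G1
import Cfsg.Agent.Lib.Helper81.MinSU.PEC
import Cfsg.Agent.Lib.Helper5.SUParabolic

set_option autoImplicit false

/-! MinSU farm, piece LOC, part A: block embedding and hyperbolic frames -/

namespace Cfsg.Agent.Lib.Helper81.MinSU

open Matrix Cfsg.Agent.Lib.Helper13 Cfsg.Agent.Lib.Helper5 Cfsg.Agent.Lib.Helper57.RootSU
  Cfsg.Agent.Lib.Helper83.MinSU

variable {F : Type*} [Field F] {q m n : ℕ}

/-- the last `m` coordinates -/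
def tail2 (x : Fin (m + 2) → F) : Fin m → F := fun i => x i.succ.succ

theorem tail2_iota (w : Fin m → F) : tail2 (iota w) = w := by
  funext i; simp [tail2, iota]
theorem tail2_add (x y : Fin (m + 2) → F) : tail2 (x + y) = tail2 x + tail2 y := rfl
theorem tail2_sub (x y : Fin (m + 2) → F) : tail2 (x - y) = tail2 x - tail2 y := rfl
theorem tail2_smul (c : F) (x : Fin (m + 2) → F) : tail2 (c • x) = c • tail2 x := rfl

theorem iota_add (w w' : Fin m → F) : iota (w + w') = iota w + iota w' := (iotaLin F m).map_add w w'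
theorem iota_smul (c : F) (w : Fin m → F) : iota (c • w) = c • iota w := (iotaLin F m).map_smul c w
theorem iota_zero : iota (0 : Fin m → F) = 0 := (iotaLin F m).map_zero

/-- block extension by a `1` in the upper left corner -/
def ext1 {k : ℕ} (A : Matrix (Fin k) (Fin k) F) : Matrix (Fin (k + 1)) (Fin (k + 1)) F :=
  Matrix.of (Fin.cons (Fin.cons 1 0) (fun i => Fin.cons 0 (A i)))

theorem ext1_mulVec {k : ℕ} (A : Matrix (Fin k) (Fin k) F) (x : Fin (k + 1) → F) :
    ext1 A *ᵥ x = Fin.cons (x 0) (A *ᵥ (fun i => x i.succ)) := by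
  funext i
  refine Fin.cases ?_ (fun i => ?_) i
  · simp [ext1, mulVec, dotProduct, Fin.sum_univ_succ]
  · simp [ext1, mulVec, dotProduct, Fin.sum_univ_succ]

theorem ext1_det {k : ℕ} (A : Matrix (Fin k) (Fin k) F) : (ext1 A).det = A.det := by
  rw [Matrix.det_succ_row_zero, Fin.sum_univ_succ]
  have h0 : (ext1 A).submatrix Fin.succ (Fin.succAbove 0) = A := by
    ext i j
    simp [ext1]
  rw [h0]
  simp [ext1]

theorem ext2_mulVec (A : Matrix (Fin m) (Fin m) F) (x : Fin (m + 2) → F) :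
    ext1 (ext1 A) *ᵥ x = Fin.cons (x 0) (Fin.cons (x 1) (A *ᵥ tail2 x)) := by
  rw [ext1_mulVec, ext1_mulVec]
  rfl

theorem ext2_preserves (A : Matrix (Fin m) (Fin m) F)
    (hA : ∀ u v, Cfsg.hermForm m F q (A *ᵥ u) (A *ᵥ v) = Cfsg.hermForm m F q u v)
    (x y : Fin (m + 2) → F) :
    Cfsg.hermForm (m + 2) F q (ext1 (ext1 A) *ᵥ x) (ext1 (ext1 A) *ᵥ y)
      = Cfsg.hermForm (m + 2) F q x y := by
  rw [ext2_mulVec, ext2_mulVec, hermForm_cons2, hA]
  conv_rhs => rw [eq_cons2 x, eq_cons2 y, hermForm_cons2]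
  rfl

/-- the block embedding `SU_m → SU_(m+2)` -/
def EE (l : Cfsg.SU m F q) : Cfsg.SU (m + 2) F q :=
  mkSU (ext1 (ext1 l.1.1)) (by rw [ext1_det, ext1_det]; exact l.1.2) (ext2_preserves _ l.2)

theorem EE_mulVec (l : Cfsg.SU m F q) (x : Fin (m + 2) → F) :
    (EE l).1.1 *ᵥ x = Fin.cons (x 0) (Fin.cons (x 1) (l.1.1 *ᵥ tail2 x)) := ext2_mulVec _ x

theorem tail2_cons (a b : F) (d : Fin m → F) :
    tail2 (Fin.cons a (Fin.cons b d) : Fin (m + 2) → F) = d := by
  funext i; simp [tail2]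

theorem EE_mul (l l' : Cfsg.SU m F q) : EE (l * l') = EE l * EE l' := by
  apply SU_ext_mulVec
  intro x
  rw [SU_mul_mulVec, EE_mulVec, EE_mulVec, EE_mulVec, tail2_cons, SU_mul_mulVec]
  simp

theorem EE_one : EE (1 : Cfsg.SU m F q) = 1 := by
  apply SU_ext_mulVec
  intro x
  rw [EE_mulVec, SU_one_mulVec, SU_one_mulVec]
  exact (eq_cons2 x).symm

theorem EE_iota (l : Cfsg.SU m F q) (w : Fin m → F) : (EE l).1.1 *ᵥ iota w = iota (l.1.1 *ᵥ w) := by
  rw [EE_mulVec, tail2_iota]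
  simp [iota]

theorem EE_of_tail2 (l : Cfsg.SU m F q) {x : Fin (m + 2) → F} (hx : tail2 x = 0) :
    (EE l).1.1 *ᵥ x = x := by
  rw [EE_mulVec, hx, mulVec_zero]
  conv_rhs => rw [eq_cons2 x]
  congr 2
  exact hx.symm

theorem EE_injective : Function.Injective (EE : Cfsg.SU m F q → Cfsg.SU (m + 2) F q) := by
  intro l l' h
  apply SU_ext_mulVec
  intro w
  apply iota_injective
  rw [← EE_iota, ← EE_iota, h]

end Cfsg.Agent.Lib.Helper81.MinSU
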