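import Mathlib
import Cfsg.Agent.Lib.Helper81.MinSU.LocA

set_option autoImplicit false

/-! MinSU farm, piece LOC, part B: hyperbolic frames -/

namespace Cfsg.Agent.Lib.Helper81.MinSU

open Matrix Cfsg.Agent.Lib.Helper13 Cfsg.Agent.Lib.Helper5 Cfsg.Agent.Lib.Helper57.RootSU
  Cfsg.Agent.Lib.Helper83.MinSU

variable {F : Type*} [Field F] [Fintype F] {q m n : ℕ}

local notation "H" => Cfsg.hermForm (m + 2) F q

variable (q) in
/-- a hyperbolic pair in the first two coordinates -/
structure Frame (e e' : Fin (m + 2) → F) : Prop where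
  ee : H e e = 0
  ff : H e' e' = 0
  fe : H e' e = 1
  ef : H e e' = 1
  te : tail2 e = 0
  tf : tail2 e' = 0
  dec : ∀ x : Fin (m + 2) → F, x = iota (tail2 x) + H x e' • e + H x e • e'

theorem herm_iota_left (hF : Fintype.card F = q ^ 2) (w : Fin m → F) (x : Fin (m + 2) → F) :
    H (iota w) x = Cfsg.hermForm m F q w (tail2 x) := by
  rw [← hermForm_swap hF, herm_iota_right hF, hermForm_swap hF]
  rfl

theorem exists_frame (hF : Fintype.card F = q ^ 2) :
    ∃ e e' : Fin (m + 2) → F, Frame q e e' := by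
  have hq := two_le_of_card_sq hF
  obtain ⟨ζ, hζ0, hζ⟩ := exists_norm_eq hF (-1) (neg_ne_zero.2 one_ne_zero)
    (by rw [neg_pow_q hF, one_pow])
  set e : Fin (m + 2) → F := Fin.cons 1 (Fin.cons ζ 0) with he
  set e1 : Fin (m + 2) → F := Fin.cons 1 (Fin.cons 0 0) with he1
  have hee : H e e = 0 := by
    rw [he, hermForm_cons2, hermForm_zero_left, one_pow, ← pow_succ', hζ]
    ring
  have h1e : H e1 e = 1 := by
    rw [he, he1, hermForm_cons2, hermForm_zero_left, one_pow]
    ring
  obtain ⟨l, hl⟩ := exists_isotropic_add_smul hF hee (by rw [h1e]; exact one_ne_zero)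
  set e' : Fin (m + 2) → F := e1 + l • e with he'
  have hfe : H e' e = 1 := by
    rw [he', hermForm_add_left, hermForm_smul_left, hee, h1e]
    ring
  have hef : H e e' = 1 := by rw [← hermForm_swap hF, hfe, one_pow]
  have hte : tail2 e = 0 := by rw [he, tail2_cons]
  have hte1 : tail2 e1 = 0 := by rw [he1, tail2_cons]
  have htf : tail2 e' = 0 := by rw [he', tail2_add, tail2_smul, hte, hte1]; simp
  refine ⟨e, e', hee, hl, hfe, hef, hte, htf, ?_⟩
  intro x
  set y : Fin (m + 2) → F := x - H x e' • e - H x e • e' with hy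
  have hye : H y e = 0 := by
    rw [hy, hermForm_sub_left, hermForm_sub_left, hermForm_smul_left, hermForm_smul_left, hee, hfe]
    ring
  have hyf : H y e' = 0 := by
    rw [hy, hermForm_sub_left, hermForm_sub_left, hermForm_smul_left, hermForm_smul_left, hef, hl]
    ring
  have hy1 : H y e1 = 0 := by
    have : e1 = e' - l • e := by rw [he']; abel
    rw [this, hermForm_sub_right hF, hermForm_smul_right, hye, hyf]
    ring
  have hy0 : y 0 = 0 := by
    have := hy1
    rw [eq_cons2 y, he1, hermForm_cons2, hermForm_zero_right hF, one_pow, zero_pow (by omega)] at this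
    linear_combination this
  have hy1' : y 1 = 0 := by
    have := hye
    rw [eq_cons2 y, he, hermForm_cons2, hermForm_zero_right hF, one_pow, hy0] at this
    have h2 : y 1 * ζ ^ q = 0 := by linear_combination this
    rcases mul_eq_zero.mp h2 with h | h
    · exact h
    · exact absurd h (pow_ne_zero _ hζ0)
  have hty : tail2 y = tail2 x := by
    rw [hy, tail2_sub, tail2_sub, tail2_smul, tail2_smul, hte, htf]
    simp
  have hyi : y = iota (tail2 x) := by
    rw [← hty]
    conv_lhs => rw [eq_cons2 y, hy0, hy1']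
    rfl
  rw [← hyi, hy]
  abel

namespace Frame

variable {e e' : Fin (m + 2) → F} (fr : Frame q e e')

include fr

theorem ie (hF : Fintype.card F = q ^ 2) (w : Fin m → F) : H (iota w) e = 0 := by
  rw [herm_iota_left hF, fr.te, hermForm_zero_right hF]
theorem if' (hF : Fintype.card F = q ^ 2) (w : Fin m → F) : H (iota w) e' = 0 := by
  rw [herm_iota_left hF, fr.tf, hermForm_zero_right hF]
theorem ei (hF : Fintype.card F = q ^ 2) (w : Fin m → F) : H e (iota w) = 0 :=
  hermForm_eq_zero_comm hF (fr.ie hF w)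
theorem fi (hF : Fintype.card F = q ^ 2) (w : Fin m → F) : H e' (iota w) = 0 :=
  hermForm_eq_zero_comm hF (fr.if' hF w)

theorem e_ne_zero : e ≠ 0 := by
  intro h
  have := fr.ef
  rw [h, hermForm_zero_left] at this
  exact zero_ne_one this

/-- two vectors with the same coordinates in the frame are equal -/
theorem ext_vec {x y : Fin (m + 2) → F} (h1 : tail2 x = tail2 y) (h2 : H x e' = H y e')
    (h3 : H x e = H y e) : x = y := by
  rw [fr.dec x, fr.dec y, h1, h2, h3]

theorem EE_e (l : Cfsg.SU m F q) : (EE l).1.1 *ᵥ e = e := EE_of_tail2 l fr.te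
theorem EE_f (l : Cfsg.SU m F q) : (EE l).1.1 *ᵥ e' = e' := EE_of_tail2 l fr.tf

theorem herm_EE_e (l : Cfsg.SU m F q) (x : Fin (m + 2) → F) : H ((EE l).1.1 *ᵥ x) e = H x e := by
  conv_lhs => rw [← fr.EE_e l, SU_preserves]
theorem herm_EE_f (l : Cfsg.SU m F q) (x : Fin (m + 2) → F) : H ((EE l).1.1 *ᵥ x) e' = H x e' := by
  conv_lhs => rw [← fr.EE_f l, SU_preserves]

end Frame

/-- membership in `Pe` -/
theorem mem_Pe_of_smul {e : Fin n → F} (g : Cfsg.SU n F q) (t : F) (ht : t ≠ 0)
    (h : g.1.1 *ᵥ e = t • e) : g ∈ Pe q e := by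
  apply mem_Pe_of_map
  · rw [h]
    exact Submodule.smul_mem _ _ (Submodule.mem_span_singleton_self e)
  · have h2 : (g⁻¹).1.1 *ᵥ e = t⁻¹ • e := by
      have := SU_inv_mulVec_mulVec g e
      rw [h, mulVec_smul] at this
      calc (g⁻¹).1.1 *ᵥ e = t⁻¹ • (t • (g⁻¹).1.1 *ᵥ e) := by
            rw [smul_smul, inv_mul_cancel₀ ht, one_smul]
        _ = t⁻¹ • e := by rw [this]
    rw [h2]
    exact Submodule.smul_mem _ _ (Submodule.mem_span_singleton_self e)

end Cfsg.Agent.Lib.Helper81.MinSU
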