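import Mathlib
import Cfsg.Agent.Lib.Helper81.MinSU.LocB

set_option autoImplicit false
set_option linter.unusedSectionVars false

/-! MinSU farm, piece LOC, part C: the elements of the point stabiliser -/

namespace Cfsg.Agent.Lib.Helper81.MinSU

open Matrix Cfsg.Agent.Lib.Helper13 Cfsg.Agent.Lib.Helper5 Cfsg.Agent.Lib.Helper57.RootSU
  Cfsg.Agent.Lib.Helper83.MinSU

variable {F : Type*} [Field F] [Fintype F] {q m n : ℕ}

local notation "H" => Cfsg.hermForm (m + 2) F q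

theorem ext2_iota (A : Matrix (Fin m) (Fin m) F) (w : Fin m → F) :
    ext1 (ext1 A) *ᵥ iota w = iota (A *ᵥ w) := by
  rw [ext2_mulVec, tail2_iota]
  simp [iota]

theorem ext2_of_tail2 (A : Matrix (Fin m) (Fin m) F) {x : Fin (m + 2) → F} (hx : tail2 x = 0) :
    ext1 (ext1 A) *ᵥ x = x := by
  rw [ext2_mulVec, hx, mulVec_zero]
  conv_rhs => rw [eq_cons2 x]
  congr 2
  exact hx.symm

theorem SU_inv_fix {g : Cfsg.SU n F q} {x : Fin n → F} (h : g.1.1 *ᵥ x = x) : (g⁻¹).1.1 *ᵥ x = x := by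
  conv_lhs => rw [← h]
  exact SU_inv_mulVec_mulVec g x

namespace Frame

variable {e e' : Fin (m + 2) → F} (fr : Frame q e e') (hF : Fintype.card F = q ^ 2)

include fr

theorem mat_ext3 {A B : Matrix (Fin (m + 2)) (Fin (m + 2)) F} (h1 : A *ᵥ e = B *ᵥ e)
    (h2 : A *ᵥ e' = B *ᵥ e') (h3 : ∀ w, A *ᵥ iota w = B *ᵥ iota w) : A = B := by
  apply mat_ext_mulVec
  intro x
  rw [fr.dec x]
  simp only [mulVec_add, mulVec_smul, h1, h2, h3]

theorem SU_ext3 {g k : Cfsg.SU (m + 2) F q} (h1 : g.1.1 *ᵥ e = k.1.1 *ᵥ e)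
    (h2 : g.1.1 *ᵥ e' = k.1.1 *ᵥ e') (h3 : ∀ w, g.1.1 *ᵥ iota w = k.1.1 *ᵥ iota w) : g = k :=
  SU_ext (fr.mat_ext3 h1 h2 h3)

/-- the unipotent elements -/
def RR (w : Fin m → F) (a : F) (h : Val q w a) : Cfsg.SU (m + 2) F q :=
  eSU hF e (iota w) a fr.ee (fr.ie hF w) (by rw [herm_iota_iota hF]; exact h)

theorem RR_mulVec (w : Fin m → F) (a : F) (h : Val q w a) (x : Fin (m + 2) → F) :
    (fr.RR hF w a h).1.1 *ᵥ x = x + H x e • iota w - H x (iota w) • e + (a * H x e) • e :=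
  eSU_mulVec hF _ _ _ _ _ _ x

theorem RR_e (w : Fin m → F) (a : F) (h : Val q w a) : (fr.RR hF w a h).1.1 *ᵥ e = e := by
  rw [RR_mulVec, fr.ee, fr.ei hF]
  simp

theorem RR_f (w : Fin m → F) (a : F) (h : Val q w a) :
    (fr.RR hF w a h).1.1 *ᵥ e' = e' + iota w + a • e := by
  rw [RR_mulVec, fr.fe, fr.fi hF]
  simp

theorem RR_i (w : Fin m → F) (a : F) (h : Val q w a) (y : Fin m → F) :
    (fr.RR hF w a h).1.1 *ᵥ iota y = iota y - Cfsg.hermForm m F q y w • e := by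
  rw [RR_mulVec, fr.ie hF, herm_iota_iota hF]
  simp

theorem RR_congr {w w' : Fin m → F} {a a' : F} (h : Val q w a) (h' : Val q w' a') (hw : w = w')
    (ha : a = a') : fr.RR hF w a h = fr.RR hF w' a' h' := by
  subst hw ha; rfl

theorem RR_mul (w w' : Fin m → F) (a a' : F) (h : Val q w a) (h' : Val q w' a') :
    fr.RR hF w a h * fr.RR hF w' a' h'
      = fr.RR hF (w + w') (a + a' - Cfsg.hermForm m F q w' w) (h.add hF h') := by
  apply fr.SU_ext3
  · rw [SU_mul_mulVec, RR_e, RR_e, RR_e]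
  · rw [SU_mul_mulVec, RR_f, RR_f]
    simp only [mulVec_add, mulVec_smul, RR_f, RR_i, RR_e, iota_add]
    module
  · intro y
    rw [SU_mul_mulVec, RR_i, RR_i]
    simp only [mulVec_sub, mulVec_smul, RR_i, RR_e, hermForm_add_right hF]
    module

theorem EE_RR (l : Cfsg.SU m F q) (w : Fin m → F) (a : F) (h : Val q w a) :
    EE l * fr.RR hF w a h = fr.RR hF (l.1.1 *ᵥ w) a (h.map l) * EE l := by
  apply fr.SU_ext3
  · rw [SU_mul_mulVec, SU_mul_mulVec, RR_e, fr.EE_e, RR_e]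
  · rw [SU_mul_mulVec, SU_mul_mulVec, RR_f, fr.EE_f, RR_f]
    simp only [mulVec_add, mulVec_smul, fr.EE_e, fr.EE_f, EE_iota]
  · intro y
    rw [SU_mul_mulVec, SU_mul_mulVec, RR_i, EE_iota, RR_i, SU_preserves]
    simp only [mulVec_sub, mulVec_smul, fr.EE_e, EE_iota]

theorem RR_zero (h : Val q (0 : Fin m → F) (0 : F)) : fr.RR hF 0 0 h = 1 := by
  apply SU_ext_mulVec
  intro x
  rw [RR_mulVec, SU_one_mulVec, iota_zero, hermForm_zero_right hF]
  simp

theorem RR_zero_mulVec (a : F) (h : Val q (0 : Fin m → F) a) (x : Fin (m + 2) → F) :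
    (fr.RR hF 0 a h).1.1 *ᵥ x = x + (a * H x e) • e := by
  rw [RR_mulVec, iota_zero, hermForm_zero_right hF]
  simp

theorem RR_eq_ut (a : F) (ha : a + a ^ q = 0) (h : Val q (0 : Fin m → F) a) :
    fr.RR hF 0 a h = ut hF e a := by
  apply SU_ext_mulVec
  intro x
  rw [RR_zero_mulVec, ut_mulVec hF fr.ee ha]

include hF in
/-- elements fixing `e` and `e'` come from the Levi factor -/
theorem levi (k : Cfsg.SU (m + 2) F q) (h1 : k.1.1 *ᵥ e = e) (h2 : k.1.1 *ᵥ e' = e') :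
    ∃ l : Cfsg.SU m F q, k = EE l := by
  set L : Matrix (Fin m) (Fin m) F :=
    k.1.1.submatrix (fun i => i.succ.succ) (fun i => i.succ.succ) with hLdef
  have hL : ∀ w, L *ᵥ w = tail2 (k.1.1 *ᵥ iota w) := by
    intro w
    funext i
    simp [hLdef, mulVec, dotProduct, Fin.sum_univ_succ, iota, tail2]
  have hki : ∀ w, k.1.1 *ᵥ iota w = iota (L *ᵥ w) := by
    intro w
    apply fr.ext_vec
    · rw [tail2_iota, hL]
    · rw [fr.if' hF]
      conv_lhs => rw [← h2, SU_preserves]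
      exact fr.if' hF w
    · rw [fr.ie hF]
      conv_lhs => rw [← h1, SU_preserves]
      exact fr.ie hF w
  have hk : k.1.1 = ext1 (ext1 L) := by
    apply fr.mat_ext3
    · rw [h1, ext2_of_tail2 L fr.te]
    · rw [h2, ext2_of_tail2 L fr.tf]
    · intro w
      rw [hki, ext2_iota]
  have hdet : L.det = 1 := by
    have := k.1.2
    rw [hk, ext1_det, ext1_det] at this
    exact this
  have hpres : ∀ u v, Cfsg.hermForm m F q (L *ᵥ u) (L *ᵥ v) = Cfsg.hermForm m F q u v := by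
    intro u v
    rw [← herm_iota_iota hF, ← hki, ← hki, SU_preserves, herm_iota_iota hF]
  exact ⟨mkSU L hdet hpres, SU_ext hk⟩

theorem ker_dec_SU (g : Cfsg.SU (m + 2) F q) (hg : g.1.1 *ᵥ e = e) :
    ∃ (w : Fin m → F) (a : F) (l : Cfsg.SU m F q) (h : Val q w a), g = fr.RR hF w a h * EE l := by
  have hfe : H (g.1.1 *ᵥ e') e = 1 := by
    conv_lhs => rw [← hg, SU_preserves]
    exact fr.fe
  have hff : H (g.1.1 *ᵥ e') (g.1.1 *ᵥ e') = 0 := by rw [SU_preserves, fr.ff]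
  obtain ⟨w, a, hdec⟩ : ∃ (w : Fin m → F) (a : F), g.1.1 *ᵥ e' = e' + iota w + a • e := by
    refine ⟨tail2 (g.1.1 *ᵥ e'), H (g.1.1 *ᵥ e') e', ?_⟩
    have := fr.dec (g.1.1 *ᵥ e')
    rw [hfe, one_smul] at this
    conv_lhs => rw [this]
    abel
  have hval : Val q w a := by
    unfold Val
    rw [hdec] at hff
    simp only [hermForm_add_left, hermForm_add_right hF, hermForm_smul_left, hermForm_smul_right,
      fr.ee, fr.ff, fr.fe, fr.ef, fr.ie hF, fr.if' hF, fr.ei hF, fr.fi hF, herm_iota_iota hF] at hff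
    linear_combination hff
  obtain ⟨l, hl⟩ := fr.levi hF ((fr.RR hF w a hval)⁻¹ * g)
    (by rw [SU_mul_mulVec, hg, SU_inv_fix (fr.RR_e hF w a hval)])
    (by rw [SU_mul_mulVec, hdec, ← fr.RR_f hF w a hval, SU_inv_mulVec_mulVec])
  refine ⟨w, a, l, hval, ?_⟩
  rw [← hl]
  group

theorem dec_inj_SU (w : Fin m → F) (a : F) (l : Cfsg.SU m F q) (h : Val q w a)
    (h1 : fr.RR hF w a h * EE l = 1) : w = 0 ∧ a = 0 ∧ l = 1 := by
  have h2 : e' + iota w + a • e = e' := by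
    have := congrArg (fun g : Cfsg.SU (m + 2) F q => g.1.1 *ᵥ e') h1
    simp only [SU_mul_mulVec, fr.EE_f, RR_f, SU_one_mulVec] at this
    exact this
  have h3 : iota w + a • e = 0 := by
    have : e' + (iota w + a • e) = e' + 0 := by rw [← add_assoc, h2, add_zero]
    exact add_left_cancel this
  have hw : w = 0 := by
    have := congrArg tail2 h3
    rw [tail2_add, tail2_smul, tail2_iota, fr.te, smul_zero, add_zero] at this
    exact this
  subst hw
  have ha : a = 0 := by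
    rw [iota_zero, zero_add] at h3
    rcases smul_eq_zero.mp h3 with h4 | h4
    · exact h4
    · exact absurd h4 fr.e_ne_zero
  subst ha
  refine ⟨rfl, rfl, ?_⟩
  rw [RR_zero, one_mul] at h1
  apply EE_injective
  rw [h1, EE_one]

end Frame

end Cfsg.Agent.Lib.Helper81.MinSU
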