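import Mathlib
import Cfsg.Agent.Lib.Helper81.MinSU.LocC

set_option autoImplicit false
set_option linter.unusedSectionVars false

/-! MinSU farm, piece LOC: the structure of the stabiliser of an isotropic point -/

namespace Cfsg.Agent.Lib.Helper81.MinSU

open Matrix Cfsg.Agent.Lib.Helper13 Cfsg.Agent.Lib.Helper5 Cfsg.Agent.Lib.Helper57.RootSU
  Cfsg.Agent.Lib.Helper83.MinSU

variable {F : Type*} [Field F] [Fintype F] {q m n : ℕ}

local notation "H" => Cfsg.hermForm (m + 2) F q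

namespace Frame

variable {e e' : Fin (m + 2) → F} (fr : Frame q e e') (hF : Fintype.card F = q ^ 2)

include fr

/-- the matrix of `e ↦ t e`, `e' ↦ t^-q e'`, `iota w ↦ iota (μ w)` -/
def cMat (_fr : Frame q e e') (t μ : F) : Matrix (Fin (m + 2)) (Fin (m + 2)) F :=
  hypMat (m + 2) q e e' t * ext1 (ext1 (μ • (1 : Matrix (Fin m) (Fin m) F)))

theorem cMat_e (t μ : F) : fr.cMat t μ *ᵥ e = t • e := by
  rw [cMat, ← mulVec_mulVec, ext2_of_tail2 _ fr.te, hypMat_mulVec t fr.ff, fr.ef, fr.ee]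
  module

theorem cMat_f (t μ : F) : fr.cMat t μ *ᵥ e' = (t ^ q)⁻¹ • e' := by
  rw [cMat, ← mulVec_mulVec, ext2_of_tail2 _ fr.tf, hypMat_mulVec t fr.ff, fr.ff, fr.fe]
  module

include hF in
theorem cMat_i (t μ : F) (w : Fin m → F) : fr.cMat t μ *ᵥ iota w = iota (μ • w) := by
  rw [cMat, ← mulVec_mulVec, ext2_iota, hypMat_mulVec t fr.ff, fr.if' hF, fr.ie hF, smul_mulVec,
    one_mulVec]
  simp

include hF in
theorem cMat_det (t μ : F) (ht : t ≠ 0) (h : μ ^ m = t ^ (q - 1)) : (fr.cMat t μ).det = 1 := by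
  have hq := two_le_of_card_sq hF
  rw [cMat, det_mul, hypMat_det hF fr.ef, ext1_det, ext1_det, det_smul, det_one, Fintype.card_fin, h,
    mul_one]
  have e1 : t * t ^ (q - 1) = t ^ q := by
    rw [← pow_succ']
    congr 1
    omega
  have htq : t ^ q ≠ 0 := pow_ne_zero _ ht
  field_simp
  exact e1

include hF in
theorem cMat_preserves (t μ : F) (ht : t ≠ 0) (hμ : μ ^ (q + 1) = 1) (x y : Fin (m + 2) → F) :
    H (fr.cMat t μ *ᵥ x) (fr.cMat t μ *ᵥ y) = H x y := by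
  rw [cMat, ← mulVec_mulVec, ← mulVec_mulVec, hypMat_preserves hF ht fr.ee fr.ff fr.ef,
    ext2_preserves]
  intro u v
  rw [smul_mulVec, smul_mulVec, one_mulVec, one_mulVec, hermForm_smul_left, hermForm_smul_right,
    ← mul_assoc, ← pow_succ', hμ, one_mul]

/-- the element `c` -/
def cSU (t μ : F) (ht : t ≠ 0) (hμ : μ ^ (q + 1) = 1) (h : μ ^ m = t ^ (q - 1)) :
    Cfsg.SU (m + 2) F q :=
  mkSU (fr.cMat t μ) (fr.cMat_det hF t μ ht h) (fr.cMat_preserves hF t μ ht hμ)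

theorem map_e (g : Pe q e) : (g : Cfsg.SU (m + 2) F q).1.1 *ᵥ e
    = H ((g : Cfsg.SU (m + 2) F q).1.1 *ᵥ e) e' • e := by
  have h1 := ((mem_Pe_iff e g.1).mp g.2 e).mp (Submodule.mem_span_singleton_self e)
  obtain ⟨t, ht⟩ := Submodule.mem_span_singleton.mp h1
  rw [← ht, hermForm_smul_left, fr.ef, mul_one]

theorem lam_ne_zero (g : Pe q e) : H ((g : Cfsg.SU (m + 2) F q).1.1 *ᵥ e) e' ≠ 0 := by
  intro h
  have := fr.map_e g
  rw [h, zero_smul] at this
  exact Cfsg.Agent.Lib.Helper5.su_mulVec_ne_zero g.1 fr.e_ne_zero this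

/-- the eigenvalue on `e` -/
noncomputable def lam : Pe q e →* Fˣ where
  toFun g := Units.mk0 (H ((g : Cfsg.SU (m + 2) F q).1.1 *ᵥ e) e') (fr.lam_ne_zero g)
  map_one' := by
    apply Units.ext
    show H ((1 : Cfsg.SU (m + 2) F q).1.1 *ᵥ e) e' = 1
    rw [SU_one_mulVec, fr.ef]
  map_mul' g k := by
    apply Units.ext
    show H ((g.1 * k.1).1.1 *ᵥ e) e' = H (g.1.1.1 *ᵥ e) e' * H (k.1.1.1 *ᵥ e) e'
    rw [SU_mul_mulVec]
    conv_lhs => rw [fr.map_e k, mulVec_smul, hermForm_smul_left]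
    ring

theorem lam_coe (g : Pe q e) : ((fr.lam g : Fˣ) : F) = H ((g : Cfsg.SU (m + 2) F q).1.1 *ᵥ e) e' := rfl

theorem lam_of_smul (g : Pe q e) (t : Fˣ) (h : (g : Cfsg.SU (m + 2) F q).1.1 *ᵥ e = (t : F) • e) :
    fr.lam g = t := by
  apply Units.ext
  rw [lam_coe, h, hermForm_smul_left, fr.ef, mul_one]

theorem map_e' (g : Pe q e) : (g : Cfsg.SU (m + 2) F q).1.1 *ᵥ e = ((fr.lam g : Fˣ) : F) • e :=
  fr.map_e g

/-- the Levi factor -/
def eps : Cfsg.SU m F q →* Pe q e where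
  toFun l := ⟨EE l, mem_Pe_of_smul (EE l) 1 one_ne_zero (by rw [fr.EE_e, one_smul])⟩
  map_one' := Subtype.ext EE_one
  map_mul' l l' := Subtype.ext (EE_mul l l')

open Classical in
/-- the unipotent radical -/
noncomputable def rho (w : Fin m → F) (a : F) : Pe q e :=
  if h : Val q w a then
    ⟨fr.RR hF w a h, mem_Pe_of_smul _ 1 one_ne_zero (by rw [fr.RR_e, one_smul])⟩
  else 1

theorem rho_coe (w : Fin m → F) (a : F) (h : Val q w a) :
    ((fr.rho hF w a : Pe q e) : Cfsg.SU (m + 2) F q) = fr.RR hF w a h := by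
  unfold rho
  rw [dif_pos h]

include hF in
theorem val_scale (t μ : F) (hμ : μ ^ (q + 1) = 1) {w : Fin m → F} {a : F} (h : Val q w a) :
    Val q ((t ^ q * μ) • w) (t ^ (q + 1) * a) := by
  unfold Val at *
  rw [hermForm_smul_left, hermForm_smul_right, mul_pow, mul_pow]
  have e1 : μ * μ ^ q = 1 := by rw [← pow_succ', hμ]
  have e2 : t ^ (q + 1) = t ^ q * t := pow_succ t q
  have e3 : (t ^ (q + 1)) ^ q = t ^ q * t := by
    rw [e2, mul_pow, pow_q_pow_q hF]; ring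
  rw [e3, e2, pow_q_pow_q hF]
  linear_combination (t ^ q * t) * h + (t ^ q * t * Cfsg.hermForm m F q w w) * e1

/-- the local structure -/
noncomputable def loc (hm : 1 ≤ m) : ULoc m F q (Pe q e) where
  rho := fr.rho hF
  eps := fr.eps
  lam := fr.lam
  rho_mul w a w' a' h h' := by
    apply Subtype.ext
    rw [Subgroup.coe_mul, rho_coe _ _ _ _ h, rho_coe _ _ _ _ h', rho_coe _ _ _ _ (h.add hF h'), RR_mul]
  eps_rho l w a h := by
    apply Subtype.ext
    rw [Subgroup.coe_mul, Subgroup.coe_mul, rho_coe _ _ _ _ h, rho_coe _ _ _ _ (h.map l)]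
    exact fr.EE_RR hF l w a h
  lam_rho w a h := by
    apply fr.lam_of_smul
    rw [rho_coe _ _ _ _ h, RR_e]
    simp
  lam_eps l := by
    apply fr.lam_of_smul
    show (EE l).1.1 *ᵥ e = _
    rw [fr.EE_e]
    simp
  lam_surj t := by
    obtain ⟨g, hg⟩ := exists_SU_smul hF (by omega : 3 ≤ m + 2) fr.e_ne_zero fr.ee t.ne_zero
    exact ⟨⟨g, mem_Pe_of_smul g t t.ne_zero hg⟩, fr.lam_of_smul _ t hg⟩
  ker_dec g hg := by
    have h1 : (g : Cfsg.SU (m + 2) F q).1.1 *ᵥ e = e := by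
      rw [fr.map_e' g, hg]
      simp
    obtain ⟨w, a, l, h, hgl⟩ := fr.ker_dec_SU hF g.1 h1
    refine ⟨w, a, l, h, ?_⟩
    apply Subtype.ext
    rw [Subgroup.coe_mul, rho_coe _ _ _ _ h]
    exact hgl
  dec_inj w a l h h1 := by
    apply fr.dec_inj_SU hF w a l h
    have := congrArg Subtype.val h1
    rw [Subgroup.coe_mul, rho_coe _ _ _ _ h] at this
    exact this
  conj_center g a ha := by
    have hv : Val q (0 : Fin m → F) a := Val.of_skew hF ha
    have hv' : Val q (0 : Fin m → F) (((fr.lam g : Fˣ) : F) ^ (q + 1) * a) := by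
      have := fr.val_scale hF ((fr.lam g : Fˣ) : F) 1 (one_pow _) hv
      rwa [smul_zero] at this
    apply Subtype.ext
    rw [Subgroup.coe_mul, Subgroup.coe_mul, rho_coe _ _ _ _ hv, rho_coe _ _ _ _ hv', Subgroup.coe_inv]
    apply SU_ext_mulVec
    intro x
    rw [SU_mul_mulVec, SU_mul_mulVec, RR_zero_mulVec, RR_zero_mulVec, mulVec_add, mulVec_smul,
      SU_mulVec_inv_mulVec, fr.map_e' g]
    have h2 : H ((g.1⁻¹).1.1 *ᵥ x) e = ((fr.lam g : Fˣ) : F) ^ q * H x e := by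
      rw [← SU_preserves g.1, SU_mulVec_inv_mulVec, fr.map_e' g, hermForm_smul_right]
    rw [h2, smul_smul, pow_succ]
    congr 2
    ring
  cen t μ hμ h := by
    have hμ' : (μ : F) ^ (q + 1) = 1 := by
      have := congrArg Units.val hμ
      simpa using this
    have h' : (μ : F) ^ m = (t : F) ^ (q - 1) := by
      have := congrArg Units.val h
      simpa using this
    have hce : (fr.cSU hF t μ t.ne_zero hμ' h').1.1 *ᵥ e = (t : F) • e := fr.cMat_e _ _
    have hcf : (fr.cSU hF t μ t.ne_zero hμ' h').1.1 *ᵥ e' = ((t : F) ^ q)⁻¹ • e' := fr.cMat_f _ _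
    have hci : ∀ w, (fr.cSU hF t μ t.ne_zero hμ' h').1.1 *ᵥ iota w = iota ((μ : F) • w) :=
      fr.cMat_i hF _ _
    refine ⟨⟨fr.cSU hF t μ t.ne_zero hμ' h', mem_Pe_of_smul _ t t.ne_zero hce⟩,
      fr.lam_of_smul _ t hce, ?_, ?_⟩
    · intro l
      apply Subtype.ext
      rw [Subgroup.coe_mul, Subgroup.coe_mul]
      show fr.cSU hF t μ t.ne_zero hμ' h' * EE l = EE l * fr.cSU hF t μ t.ne_zero hμ' h'
      apply fr.SU_ext3
      · rw [SU_mul_mulVec, SU_mul_mulVec, fr.EE_e, hce, mulVec_smul, fr.EE_e]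
      · rw [SU_mul_mulVec, SU_mul_mulVec, fr.EE_f, hcf, mulVec_smul, fr.EE_f]
      · intro w
        rw [SU_mul_mulVec, SU_mul_mulVec, EE_iota, hci, hci, EE_iota, mulVec_smul]
    · intro w a hv
      have hv' := fr.val_scale hF (t : F) (μ : F) hμ' hv
      apply Subtype.ext
      rw [Subgroup.coe_mul, Subgroup.coe_mul, rho_coe _ _ _ _ hv, rho_coe _ _ _ _ hv']
      show fr.cSU hF t μ t.ne_zero hμ' h' * _ = _ * fr.cSU hF t μ t.ne_zero hμ' h'
      have htq : (t : F) ^ q ≠ 0 := pow_ne_zero _ t.ne_zero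
      apply fr.SU_ext3
      · rw [SU_mul_mulVec, SU_mul_mulVec, RR_e, hce, mulVec_smul, RR_e]
      · rw [SU_mul_mulVec, SU_mul_mulVec, RR_f, hcf, mulVec_smul, RR_f]
        simp only [mulVec_add, mulVec_smul, hce, hcf, hci, iota_smul, smul_add, smul_smul]
        have e1 : ((t : F) ^ q)⁻¹ * ((t : F) ^ q * (μ : F)) = μ := by field_simp
        have e2 : ((t : F) ^ q)⁻¹ * ((t : F) ^ (q + 1) * a) = a * t := by
          rw [pow_succ]; field_simp
        rw [e1, e2]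
      · intro y
        rw [SU_mul_mulVec, SU_mul_mulVec, RR_i, hci, RR_i]
        simp only [mulVec_sub, mulVec_smul, hce, hci, smul_smul, hermForm_smul_left,
          hermForm_smul_right, mul_pow, pow_q_pow_q hF]
        have e1 : (t : F) * (μ : F) ^ q * ((μ : F) * Cfsg.hermForm m F q y w)
            = Cfsg.hermForm m F q y w * t := by
          have e0 : (μ : F) * (μ : F) ^ q = 1 := by rw [← pow_succ', hμ']
          linear_combination ((t : F) * Cfsg.hermForm m F q y w) * e0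
        rw [e1]

end Frame

/-- [LOC] -/
theorem exists_loc (hF : Fintype.card F = q ^ 2) (m : ℕ) (hm : 1 ≤ m) :
    ∃ (e : Fin (m + 2) → F) (L : ULoc m F q (Pe q e)), e ≠ 0 ∧
      Cfsg.hermForm (m + 2) F q e e = 0 ∧
      (∀ a : F, a + a ^ q = 0 → ((L.rho 0 a : Pe q e) : Cfsg.SU (m + 2) F q) = ut hF e a) ∧
      (∀ (l : Cfsg.SU m F q) (x : Fin (m + 2) → F),
        ((L.eps l : Pe q e) : Cfsg.SU (m + 2) F q).1.1 *ᵥ x
          = Fin.cons (x 0) (Fin.cons (x 1) (l.1.1 *ᵥ (fun i => x i.succ.succ)))) := by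
  obtain ⟨e, e', fr⟩ := exists_frame (m := m) hF
  refine ⟨e, fr.loc hF hm, fr.e_ne_zero, fr.ee, ?_, ?_⟩
  · intro a ha
    show ((fr.rho hF 0 a : Pe q e) : Cfsg.SU (m + 2) F q) = _
    rw [fr.rho_coe hF 0 a (Val.of_skew hF ha), fr.RR_eq_ut hF a ha]
  · intro l x
    exact EE_mulVec l x

end Cfsg.Agent.Lib.Helper81.MinSU
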